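import Mathlib

/-!
The numerical inequalities for the sharper bound `k(H)² ≤ 3 ^ (n - 1)`: weights `wt l` of an orbit of
length `l` and the factors `amp l` of the weighted sum over such an orbit.
-/

set_option autoImplicit false

namespace Cfsg.Agent.Lib.PermClasses

/-- The weight of an orbit. -/
noncomputable def wt (l : ℕ) : ℝ :=
  if l ≤ 1 then 1 else if l = 2 then 2 else Real.sqrt 3 ^ (l - 1)

/-- The factor for the weighted sum. -/
noncomputable def amp (l : ℕ) : ℝ := if l ≤ 2 then 1 else (1 + Real.sqrt 3) / 2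

lemma sqrt_three_sq : Real.sqrt 3 * Real.sqrt 3 = 3 := Real.mul_self_sqrt (by norm_num)

lemma sqrt_three_gt : (1.732 : ℝ) < Real.sqrt 3 := by
  rw [Real.lt_sqrt (by norm_num)]; norm_num

lemma sqrt_three_lt : Real.sqrt 3 < 1.7321 := by
  rw [Real.sqrt_lt (by norm_num) (by norm_num)]; norm_num

lemma wt_one : wt 1 = 1 := by simp [wt]
lemma wt_two : wt 2 = 2 := by simp [wt]
lemma wt_three : wt 3 = 3 := by simp [wt, pow_two]
lemma amp_one : amp 1 = 1 := by simp [amp]
lemma amp_two : amp 2 = 1 := by simp [amp]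

lemma wt_big {l : ℕ} (h : 3 ≤ l) : wt l = Real.sqrt 3 ^ (l - 1) := by
  simp [wt, show ¬ l ≤ 1 by omega, show l ≠ 2 by omega]

lemma amp_big {l : ℕ} (h : 3 ≤ l) : amp l = (1 + Real.sqrt 3) / 2 := by
  simp [amp, show ¬ l ≤ 2 by omega]

lemma wt_pos (l : ℕ) : 0 < wt l := by
  unfold wt; split_ifs <;> positivity

lemma one_le_amp (l : ℕ) : 1 ≤ amp l := by
  unfold amp; split_ifs
  · exact le_rfl
  · linarith [sqrt_three_gt]

lemma amp_pos (l : ℕ) : 0 < amp l := lt_of_lt_of_le one_pos (one_le_amp l)

lemma wt_succ {l : ℕ} (h : 3 ≤ l) : wt (l + 1) = wt l * Real.sqrt 3 := by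
  rw [wt_big h, wt_big (by omega), ← pow_succ]; congr 1; omega

lemma three_le_wt {l : ℕ} (h : 3 ≤ l) : 3 ≤ wt l := by
  rw [wt_big h]
  calc (3 : ℝ) = Real.sqrt 3 ^ 2 := by rw [pow_two, sqrt_three_sq]
    _ ≤ _ := pow_le_pow_right₀ (by linarith [sqrt_three_gt]) (by omega)

lemma cases_three {l : ℕ} (h : 1 ≤ l) : l = 1 ∨ l = 2 ∨ 3 ≤ l := by omega

lemma wt_add_big {i j : ℕ} (hi : 3 ≤ i) (hj : 3 ≤ j) : wt (i + j) = Real.sqrt 3 * (wt i * wt j) := by
  rw [wt_big hi, wt_big hj, wt_big (by omega), ← pow_add, ← pow_succ']; congr 1; omega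

lemma wt_two_add {j : ℕ} (hj : 3 ≤ j) : wt (2 + j) = 3 * wt j := by
  rw [show 2 + j = j + 1 + 1 by omega, wt_succ (by omega), wt_succ hj, mul_assoc, sqrt_three_sq, mul_comm]

lemma merge_aux {i j : ℕ} (hi : 1 ≤ i) (hij : i ≤ j) :
    wt i * wt j ≤ wt (i + j) ∧ (1 + amp i + amp j) * (wt i * wt j) ≤ (1 + amp (i + j)) * wt (i + j) := by
  have h1 := sqrt_three_sq; have h2 := sqrt_three_gt; have h3 := sqrt_three_lt
  rcases cases_three hi with rfl | rfl | hi3 <;>
    rcases cases_three (le_trans hi hij) with rfl | rfl | hj3 <;> try omega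
  · simp only [show 1 + 1 = 2 from rfl, wt_one, wt_two, amp_one, amp_two]; norm_num
  · simp only [show 1 + 2 = 3 from rfl, wt_one, wt_two, wt_three, amp_one, amp_two, amp_big (le_refl 3)]
    constructor <;> nlinarith
  · rw [add_comm 1 j, wt_succ hj3, amp_big hj3, amp_big (show 3 ≤ j + 1 by omega), wt_one, amp_one, one_mul]
    have := wt_pos j
    constructor <;> nlinarith
  · simp only [show 2 + 2 = 3 + 1 from rfl, wt_succ (le_refl 3), wt_two, wt_three, amp_two,
      amp_big (show 3 ≤ 3 + 1 by omega)]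
    constructor <;> nlinarith
  · rw [wt_two_add hj3, amp_big hj3, amp_big (show 3 ≤ 2 + j by omega), wt_two, amp_two]
    have := wt_pos j
    constructor <;> nlinarith
  · rw [wt_add_big hi3 hj3, amp_big hj3, amp_big hi3, amp_big (show 3 ≤ i + j by omega)]
    have := mul_pos (wt_pos i) (wt_pos j)
    constructor <;> nlinarith

lemma wt_mul_le {i j : ℕ} (hi : 1 ≤ i) (hj : 1 ≤ j) : wt i * wt j ≤ wt (i + j) := by
  rcases le_total i j with h | h
  · exact (merge_aux hi h).1
  · rw [mul_comm, add_comm]; exact (merge_aux hj h).1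

/-- Merging two orbits increases the weighted sum. -/
lemma merge {i j : ℕ} (hi : 1 ≤ i) (hj : 1 ≤ j) {x : ℝ} (hx : 1 ≤ x) :
    (x + amp i + amp j) * (wt i * wt j) ≤ (x + amp (i + j)) * wt (i + j) := by
  have h0 := wt_mul_le hi hj
  have h1 : (1 + amp i + amp j) * (wt i * wt j) ≤ (1 + amp (i + j)) * wt (i + j) := by
    rcases le_total i j with h | h
    · exact (merge_aux hi h).2
    · have := (merge_aux hj h).2
      rw [mul_comm (wt i), add_comm i j]; linarith
  nlinarith [mul_le_mul_of_nonneg_left h0 (by linarith : (0 : ℝ) ≤ x - 1)]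

lemma pair_bound_aux {i j : ℕ} (hi : 1 ≤ i) (hij : i ≤ j) :
    (amp i + amp j) * (wt i * wt j) + 1 ≤ wt (i + j + 1) := by
  have h1 := sqrt_three_sq; have h2 := sqrt_three_gt; have h3 := sqrt_three_lt
  rcases cases_three hi with rfl | rfl | hi3 <;>
    rcases cases_three (le_trans hi hij) with rfl | rfl | hj3 <;> try omega
  · simp only [show 1 + 1 + 1 = 3 from rfl, wt_one, wt_three, amp_one]; norm_num
  · simp only [show 1 + 2 + 1 = 3 + 1 from rfl, wt_succ (le_refl 3), wt_one, wt_two, wt_three, amp_one, amp_two]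
    nlinarith
  · rw [show 1 + j + 1 = 2 + j by omega, wt_two_add hj3, amp_big hj3, wt_one, amp_one, one_mul]
    have := three_le_wt hj3
    nlinarith
  · simp only [show 2 + 2 + 1 = 2 + 3 from rfl, wt_two_add (le_refl 3), wt_two, wt_three, amp_two]; norm_num
  · rw [wt_succ (show 3 ≤ 2 + j by omega), wt_two_add hj3, amp_big hj3, wt_two, amp_two]
    have := three_le_wt hj3
    nlinarith
  · rw [wt_succ (show 3 ≤ i + j by omega), wt_add_big hi3 hj3, amp_big hi3, amp_big hj3]
    have := three_le_wt hi3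
    have := three_le_wt hj3
    nlinarith [mul_le_mul (three_le_wt hi3) (three_le_wt hj3) (by norm_num) (by positivity)]

/-- The weighted sum for one orbit of the stabilizer. -/
lemma single_sum {m : ℕ} (hm : 1 ≤ m) : (1 + amp m) * wt m ≤ amp (m + 1) * wt (m + 1) := by
  have h1 := sqrt_three_sq; have h2 := sqrt_three_gt; have h3 := sqrt_three_lt
  rcases cases_three hm with rfl | rfl | h
  · simp only [show 1 + 1 = 2 from rfl, wt_one, wt_two, amp_one, amp_two]; norm_num
  · simp only [show 2 + 1 = 3 from rfl, wt_three, wt_two, amp_two, amp_big (le_refl 3)]; nlinarith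
  · rw [wt_succ h, amp_big h, amp_big (show 3 ≤ m + 1 by omega)]
    have := wt_pos m
    nlinarith

lemma single_count {m : ℕ} (hm : 1 ≤ m) : amp m * wt m + 1 ≤ wt (m + 1) := by
  have h1 := sqrt_three_sq; have h2 := sqrt_three_gt; have h3 := sqrt_three_lt
  rcases cases_three hm with rfl | rfl | h
  · simp only [show 1 + 1 = 2 from rfl, wt_one, wt_two, amp_one]; norm_num
  · simp only [show 2 + 1 = 3 from rfl, wt_three, wt_two, amp_two]; norm_num
  · rw [wt_succ h, amp_big h]
    have := three_le_wt h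
    nlinarith

lemma sum_amp_nonneg (M : Multiset ℕ) : 0 ≤ (M.map amp).sum :=
  Multiset.sum_nonneg fun a ha => by
    obtain ⟨l, -, rfl⟩ := Multiset.mem_map.1 ha
    exact (amp_pos l).le

lemma prod_wt_pos (M : Multiset ℕ) : 0 < (M.map wt).prod := by
  induction M using Multiset.induction with
  | empty => simp
  | cons a M ih => simpa using mul_pos (wt_pos a) ih

/-- The product of the weights of the parts is at most the weight of the whole. -/
lemma prod_wt_le : ∀ (M : Multiset ℕ), (∀ l ∈ M, 1 ≤ l) → (M.map wt).prod ≤ wt M.sum := by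
  intro M
  induction M using Multiset.induction with
  | empty => simp [wt]
  | cons a M ih =>
    intro h
    rw [Multiset.map_cons, Multiset.prod_cons, Multiset.sum_cons]
    rcases M.empty_or_exists_mem with rfl | ⟨b, hb⟩
    · simp
    · have hsum : 1 ≤ M.sum := (h b (Multiset.mem_cons_of_mem hb)).trans (Multiset.le_sum_of_mem hb)
      exact (mul_le_mul_of_nonneg_left (ih fun l hl => h l (Multiset.mem_cons_of_mem hl)) (wt_pos a).le).trans
        (wt_mul_le (h a (Multiset.mem_cons_self a M)) hsum)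

/-- The two inequalities used in the induction: `M` lists the orbits of the stabilizer other than the
fixed point. -/
theorem parts_bound : ∀ (n : ℕ) (M : Multiset ℕ), Multiset.card M = n → M ≠ 0 → (∀ l ∈ M, 1 ≤ l) →
    (1 + (M.map amp).sum) * (M.map wt).prod ≤ amp (M.sum + 1) * wt (M.sum + 1) ∧
      (M.map amp).sum * (M.map wt).prod + 1 ≤ wt (M.sum + 1) := by
  intro n
  induction n with
  | zero => intro M hn h0; exact absurd (Multiset.card_eq_zero.1 hn) h0
  | succ n ih =>
    intro M hn _ hpos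
    obtain ⟨i, M1, rfl⟩ : ∃ i M1, M = i ::ₘ M1 := by
      obtain ⟨i, hi⟩ := Multiset.card_pos_iff_exists_mem.1 (show 0 < Multiset.card M by omega)
      exact ⟨i, _, (Multiset.cons_erase hi).symm⟩
    have hi : 1 ≤ i := hpos i (Multiset.mem_cons_self _ _)
    rcases M1.empty_or_exists_mem with rfl | ⟨j, hj⟩
    · simpa using And.intro (single_sum hi) (single_count hi)
    obtain ⟨M2, rfl⟩ : ∃ M2, M1 = j ::ₘ M2 := ⟨_, (Multiset.cons_erase hj).symm⟩
    have hj1 : 1 ≤ j := hpos j (by simp)
    have hrec := ih ((i + j) ::ₘ M2) (by simp at hn ⊢; omega) (by simp) fun l hl => by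
      rcases Multiset.mem_cons.1 hl with rfl | hl
      · omega
      · exact hpos l (by simp [hl])
    simp only [Multiset.map_cons, Multiset.sum_cons, Multiset.prod_cons] at hrec ⊢
    rw [← add_assoc i j M2.sum]
    set S := (M2.map amp).sum with hS
    set Q := (M2.map wt).prod with hQ
    have hQ0 : 0 < Q := prod_wt_pos M2
    have hS0 : 0 ≤ S := sum_amp_nonneg M2
    refine ⟨?_, ?_⟩
    · refine le_trans ?_ hrec.1
      have := mul_le_mul_of_nonneg_right (merge hi hj1 (x := 1 + S) (by linarith)) hQ0.le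
      linarith
    · rcases M2.empty_or_exists_mem with h2 | ⟨l, hl⟩
      · subst h2
        simp only [hS, hQ, Multiset.map_zero, Multiset.sum_zero, Multiset.prod_zero, add_zero, mul_one]
        rcases le_total i j with h | h
        · exact pair_bound_aux hi h
        · have := pair_bound_aux hj1 h
          rw [add_comm i j]; linarith
      · have hS1 : 1 ≤ S := (one_le_amp l).trans (Multiset.single_le_sum (fun a ha => by
          obtain ⟨k, -, rfl⟩ := Multiset.mem_map.1 ha
          exact (amp_pos k).le) _ (Multiset.mem_map_of_mem amp hl))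
        refine le_trans ?_ hrec.2
        have := mul_le_mul_of_nonneg_right (merge hi hj1 hS1) hQ0.le
        linarith

end Cfsg.Agent.Lib.PermClasses
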