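import Cfsg.Agent.Lib.PermClasses.Bound
import Cfsg.Agent.Lib.PermClasses.Numeric

/-!
A sharper elementary bound: a permutation group of degree `n ≥ 3` has `k(G)² ≤ 3 ^ (n - 1)`.

For an orbit `O` of `H`, `β ∈ O`, `K = H_β` and `N` the pointwise stabilizer of `O`, one has
`k(H) ≤ k(N) + (T(K, O) / |K| - k(K))`; this and `T(H, O) ≤ |O| T(K, O)` feed the induction.
-/

set_option autoImplicit false

namespace Cfsg.Agent.Lib.PermClasses

open Finset

variable {α : Type*} [Fintype α]

open scoped Classical in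
/-- The moved points of `x` in `S`. -/
noncomputable def movIn (S : Finset α) (x : Equiv.Perm α) : Finset α :=
  S.filter fun a => ¬ x a = a

/-- The pointwise stabilizer. -/
def fixer (H : Subgroup (Equiv.Perm α)) (O : Finset α) : Subgroup (Equiv.Perm α) :=
  H ⊓ ⨅ a ∈ O, MulAction.stabilizer (Equiv.Perm α) a

lemma mem_fixer {H : Subgroup (Equiv.Perm α)} {O : Finset α} {g : Equiv.Perm α} :
    g ∈ fixer H O ↔ g ∈ H ∧ ∀ a ∈ O, g a = a := by
  simp [fixer, Subgroup.mem_iInf, Equiv.Perm.smul_def]

/-- The centralizer inside `H`. -/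
def centIn (H : Subgroup (Equiv.Perm α)) (x : Equiv.Perm α) : Subgroup (Equiv.Perm α) :=
  H ⊓ Subgroup.centralizer {x}

lemma mem_centIn {H : Subgroup (Equiv.Perm α)} {x g : Equiv.Perm α} :
    g ∈ centIn H x ↔ g ∈ H ∧ g * x = x * g := by
  simp [centIn, Subgroup.mem_centralizer_singleton_iff]

lemma card_els_centIn (H : Subgroup (Equiv.Perm α)) (x : Equiv.Perm α) :
    (els (centIn H x)).card = cen H x := by
  classical
  unfold cen
  congr 1
  ext g
  simp [mem_els, mem_centIn]

/-- An invariant nonempty set contributes at least the group order to the fixed-point count. -/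
lemma card_le_sum_fixIn (C : Subgroup (Equiv.Perm α)) (S : Finset α) (hS : S.Nonempty)
    (hinv : ∀ g ∈ C, ∀ a ∈ S, g a ∈ S) : (els C).card ≤ ∑ g ∈ els C, (fixIn S g).card := by
  classical
  have e : ∑ g ∈ els C, (fixIn S g).card = ∑ a ∈ S, (els (stab C a)).card := by
    have h : ∀ a, els (stab C a) = (els C).filter fun g : Equiv.Perm α => g a = a := fun a => by
      ext g; simp [mem_els, mem_stab]
    simp only [fixIn, h, card_filter]
    exact sum_comm
  rw [e]
  refine Nat.le_of_mul_le_mul_left ?_ (card_pos.2 hS)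
  rw [mul_sum, ← smul_eq_mul, ← sum_const]
  refine sum_le_sum fun a ha => ?_
  rw [← card_orb_mul C a, mul_comm]
  refine Nat.mul_le_mul_right _ (card_le_card fun b hb => ?_)
  obtain ⟨g, hg, rfl⟩ := mem_orb.1 hb
  exact hinv g hg a ha

lemma cen_le_mov (H : Subgroup (Equiv.Perm α)) (b : α) (g : Equiv.Perm α) (hg : ¬ g b = b) :
    cen H g ≤ cen (stab H b) g * (movIn (orb H b) g).card := by
  classical
  refine card_le_mul_card_image_of_maps_to (f := fun h : Equiv.Perm α => h b) (fun h hh => ?_) _
    (fun a _ => card_fiber_le H b g a)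
  obtain ⟨h1, h2⟩ := mem_filter.1 hh
  refine mem_filter.2 ⟨mem_orb.2 ⟨h, mem_els.1 h1, rfl⟩, fun e => hg ?_⟩
  rw [← Equiv.Perm.mul_apply, ← h2, Equiv.Perm.mul_apply] at e
  exact h.injective e

/-- The commuting pairs of `H`, against the stabilizer. -/
lemma pairs_le_sharp (H : Subgroup (Equiv.Perm α)) (b : α) (hb : 2 ≤ (orb H b).card) :
    pairs H + (orb H b).card * pairs (stab H b) ≤
      (orb H b).card * wsum (stab H b) (orb H b) + ∑ x ∈ els (fixer H (orb H b)), cen H x := by
  classical
  set K := stab H b with hK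
  set O := orb H b with hO
  set n := O.card with hn
  set N := fixer H O with hN
  have hKfilter : els K = (els H).filter fun g : Equiv.Perm α => g b = b := by
    ext g; simp [hK, mem_els, mem_stab]
  have hNK : els N ⊆ els K := fun g hg => by
    rw [mem_els, hN, mem_fixer] at hg
    exact mem_els.2 (mem_stab.2 ⟨hg.1, hg.2 b (self_mem_orb H b)⟩)
  have hfm : ∀ g, (fixIn O g).card + (movIn O g).card = n := fun g =>
    card_filter_add_card_filter_not _
  set Q := ∑ x ∈ els K, cen H x with hQ
  have hswap : Q = ∑ g ∈ els H, cen K g := by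
    simp only [hQ, cen, card_filter]
    rw [sum_comm]
    exact sum_congr rfl fun g _ => sum_congr rfl fun x _ => if_congr eq_comm rfl rfl
  set X := ∑ g ∈ els H, (fixIn O g).card * cen K g with hX
  have h1 : pairs H + X + n * pairs K ≤ n * Q + 2 * wsum K O := by
    have hsum : pairs H + X + n * pairs K =
        ∑ g ∈ els H, (cen H g + (fixIn O g).card * cen K g + if g b = b then n * cen K g else 0) := by
      rw [sum_add_distrib, sum_add_distrib, ← sum_filter, ← hKfilter, pairs, pairs, mul_sum, hX]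
    have hrhs : n * Q + 2 * wsum K O =
        ∑ g ∈ els H, (n * cen K g + if g b = b then 2 * (cen K g * (fixIn O g).card) else 0) := by
      rw [sum_add_distrib, ← sum_filter, ← hKfilter, hswap, mul_sum, wsum, mul_sum]
    rw [hsum, hrhs]
    refine sum_le_sum fun g _ => ?_
    by_cases hg : g b = b
    · have := cen_le_fix H b g hg
      rw [← hK, ← hO] at this
      rw [if_pos hg, if_pos hg]
      nlinarith
    · have := cen_le_mov H b g hg
      rw [← hK, ← hO] at this
      rw [if_neg hg, if_neg hg, ← hfm g]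
      nlinarith
  have h2 : 2 * Q ≤ X + ∑ x ∈ els N, cen H x := by
    have hXeq : X = ∑ x ∈ els K, ∑ g ∈ els (centIn H x), (fixIn O g).card := by
      have hc : ∀ x, els (centIn H x) = (els H).filter fun g : Equiv.Perm α => g * x = x * g := fun x => by
        ext g; simp [mem_els, mem_centIn]
      simp only [hc, sum_filter]
      rw [sum_comm, hX]
      refine sum_congr rfl fun g _ => ?_
      rw [← sum_filter, sum_const, smul_eq_mul, mul_comm]
      congr 1
      unfold cen
      congr 1
      ext x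
      simp [eq_comm]
    rw [hXeq, hQ, mul_sum, ← inter_eq_right.2 hNK, ← filter_mem_eq_inter, sum_filter, ← sum_add_distrib]
    refine sum_le_sum fun x hx => ?_
    have hxb : x b = b := (mem_stab.1 (mem_els.1 hx)).2
    have hxH : x ∈ H := (mem_stab.1 (mem_els.1 hx)).1
    have hO' : ∀ g ∈ centIn H x, ∀ a ∈ O, g a ∈ O := fun g hg a ha => by
      obtain ⟨h, hh, rfl⟩ := mem_orb.1 ha
      exact mem_orb.2 ⟨g * h, H.mul_mem (mem_centIn.1 hg).1 hh, rfl⟩
    by_cases hxN : x ∈ els N
    · rw [if_pos hxN]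
      have := card_le_sum_fixIn (centIn H x) O ⟨b, self_mem_orb H b⟩ hO'
      rw [card_els_centIn] at this
      omega
    · rw [if_neg hxN, add_zero]
      have hmov : (movIn O x).Nonempty := by
        by_contra h
        refine hxN (mem_els.2 (mem_fixer.2 ⟨hxH, fun a ha => ?_⟩))
        by_contra hne
        exact h ⟨a, mem_filter.2 ⟨ha, hne⟩⟩
      have hcomm : ∀ g ∈ centIn H x, ∀ a, x (g a) = g (x a) := fun g hg a => by
        rw [← Equiv.Perm.mul_apply, ← (mem_centIn.1 hg).2, Equiv.Perm.mul_apply]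
      have hA := card_le_sum_fixIn (centIn H x) (fixIn O x) ⟨b, mem_filter.2 ⟨self_mem_orb H b, hxb⟩⟩
        fun g hg a ha => mem_filter.2 ⟨hO' g hg a (mem_filter.1 ha).1, by
          rw [hcomm g hg a, (mem_filter.1 ha).2]⟩
      have hB := card_le_sum_fixIn (centIn H x) (movIn O x) hmov
        fun g hg a ha => mem_filter.2 ⟨hO' g hg a (mem_filter.1 ha).1, by
          rw [hcomm g hg a]
          exact fun e => (mem_filter.1 ha).2 (g.injective e)⟩
      rw [card_els_centIn] at hA hB
      have hsplit : ∀ g, (fixIn (fixIn O x) g).card + (fixIn (movIn O x) g).card = (fixIn O g).card := fun g => by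
        simp only [fixIn, movIn, filter_filter]
        rw [← card_union_of_disjoint]
        · congr 1
          ext a
          simp only [mem_union, mem_filter]
          tauto
        · rw [disjoint_left]
          simp only [mem_filter]
          tauto
      rw [← sum_congr rfl fun g _ => hsplit g, sum_add_distrib]
      omega
  have h3 : Q ≤ wsum K O := by
    refine sum_le_sum fun x hx => ?_
    exact cen_le_fix H b x (mem_stab.1 (mem_els.1 hx)).2
  obtain ⟨d, hd⟩ : ∃ d, n = 2 + d := ⟨n - 2, by omega⟩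
  rw [hd] at h1 ⊢
  nlinarith

/-- The centralizers of elements of the pointwise stabilizer. -/
lemma sum_fixer_le (H : Subgroup (Equiv.Perm α)) (O : Finset α) :
    (els (fixer H O)).card * ∑ x ∈ els (fixer H O), cen H x ≤ (els H).card * pairs (fixer H O) := by
  classical
  set N := fixer H O with hN
  let f : Equiv.Perm α → α → α := fun h a => if a ∈ O then h a else a
  have hmem : ∀ h₀ ∈ H, ∀ h ∈ H, f h = f h₀ → h₀⁻¹ * h ∈ N := fun h₀ hh₀ h hh e => by
    refine mem_fixer.2 ⟨H.mul_mem (H.inv_mem hh₀) hh, fun a ha => ?_⟩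
    have := congrFun e a
    simp only [f, if_pos ha] at this
    simp [this]
  have hfib : ∀ a ∈ (els H).image f, ((els H).filter fun h => f h = a).card = (els N).card := by
    intro a ha
    obtain ⟨h₀, hh₀, rfl⟩ := mem_image.1 ha
    refine card_bij' (fun h _ => h₀⁻¹ * h) (fun k _ => h₀ * k) ?_ ?_ ?_ ?_
    · intro h hh
      exact mem_els.2 (hmem h₀ (mem_els.1 hh₀) h (mem_els.1 (mem_filter.1 hh).1) (mem_filter.1 hh).2)
    · intro k hk
      obtain ⟨hkH, hkO⟩ := mem_fixer.1 (mem_els.1 hk)
      refine mem_filter.2 ⟨mem_els.2 (H.mul_mem (mem_els.1 hh₀) hkH), funext fun c => ?_⟩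
      by_cases hc : c ∈ O
      · simp [f, hc, hkO c hc]
      · simp [f, hc]
    · intro h _; simp
    · intro k _; simp
  have hH : (els H).card = (els N).card * ((els H).image f).card := by
    rw [card_eq_sum_card_image f (els H), sum_congr rfl hfib, sum_const, smul_eq_mul, mul_comm]
  rw [hH, mul_assoc]
  refine Nat.mul_le_mul_left _ ?_
  rw [pairs, mul_sum]
  refine sum_le_sum fun x _ => ?_
  rw [mul_comm]
  refine card_le_mul_card_image_of_maps_to (f := f) (fun h hh => mem_image_of_mem f (mem_filter.1 hh).1) _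
    fun a _ => ?_
  by_cases he : (((els H).filter fun g : Equiv.Perm α => g * x = x * g).filter fun h => f h = a).Nonempty
  · obtain ⟨h₀, hh₀⟩ := he
    obtain ⟨h01, h0f⟩ := mem_filter.1 hh₀
    obtain ⟨h0H, h0c⟩ := mem_filter.1 h01
    refine card_le_card_of_injOn (fun h => h₀⁻¹ * h) (fun h hh => ?_) (fun u _ v _ e => mul_left_cancel e)
    obtain ⟨h1, hf⟩ := mem_filter.1 (mem_coe.1 hh)
    obtain ⟨hhH, hc⟩ := mem_filter.1 h1
    refine mem_coe.2 (mem_filter.2 ⟨mem_els.2 (hmem h₀ (mem_els.1 h0H) h (mem_els.1 hhH) (hf.trans h0f.symm)), ?_⟩)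
    exact ((Commute.inv_left (show Commute h₀ x from h0c)).mul_left (show Commute h x from hc)).eq
  · simp [not_nonempty_iff_eq_empty.1 he]

open scoped Classical in
/-- The product of the orbit weights inside a set. -/
noncomputable def psi (H : Subgroup (Equiv.Perm α)) (S : Finset α) : ℝ :=
  ∏ U ∈ S.image (orb H), wt U.card

/-- The product of all orbit weights. -/
noncomputable def phi (H : Subgroup (Equiv.Perm α)) : ℝ := psi H univ

open scoped Classical in
lemma parts_sum {K H : Subgroup (Equiv.Perm α)} (hK : K ≤ H) (c : α) :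
    ∑ U ∈ (orb H c).image (orb K), U.card = (orb H c).card := by
  rw [card_eq_sum_card_fiberwise (f := orb K) (s := orb H c) (t := (orb H c).image (orb K))
    (fun a ha => mem_image_of_mem _ ha)]
  refine sum_congr rfl fun U hU => congrArg card ?_
  obtain ⟨d, hd, rfl⟩ := mem_image.1 hU
  ext a
  simp only [mem_filter]
  exact ⟨fun ha => ⟨orb_eq_of_mem hd ▸ orb_mono hK d ha, orb_eq_of_mem ha⟩,
    fun ⟨_, e⟩ => e ▸ self_mem_orb K a⟩

lemma psi_le {K H : Subgroup (Equiv.Perm α)} (hK : K ≤ H) (c : α) :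
    psi K (orb H c) ≤ wt (orb H c).card := by
  classical
  have h := prod_wt_le (((orb H c).image (orb K)).val.map Finset.card) fun l hl => by
    obtain ⟨U, hU, rfl⟩ := Multiset.mem_map.1 hl
    obtain ⟨d, -, rfl⟩ := mem_image.1 hU
    exact card_pos.2 ⟨d, self_mem_orb K d⟩
  rw [Multiset.map_map] at h
  change psi K (orb H c) ≤ wt (∑ U ∈ (orb H c).image (orb K), U.card) at h
  rwa [parts_sum hK c] at h

lemma psi_pos (H : Subgroup (Equiv.Perm α)) (S : Finset α) : 0 < psi H S :=
  Finset.prod_pos fun _ _ => wt_pos _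

open scoped Classical in
lemma phi_le {K H : Subgroup (Equiv.Perm α)} (hK : K ≤ H) (b : α) :
    phi K ≤ psi K (orb H b) * (phi H / wt (orb H b).card) := by
  set J := (univ : Finset α).image (orb H) with hJ
  let g : Finset α → Finset α := fun U => U.biUnion (orb H)
  have hg : ∀ c, g (orb K c) = orb H c := fun c => by
    ext a
    simp only [g, mem_biUnion]
    exact ⟨fun ⟨d, hd, ha⟩ => orb_eq_of_mem (orb_mono hK c hd) ▸ ha, fun ha => ⟨c, self_mem_orb K c, ha⟩⟩
  have e : phi K = ∏ O' ∈ J, psi K O' := by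
    unfold phi psi
    rw [← prod_fiberwise_of_maps_to (g := g) (t := J) (fun U hU => by
      obtain ⟨c, -, rfl⟩ := mem_image.1 hU
      rw [hg]; exact mem_image_of_mem _ (mem_univ c))]
    refine prod_congr rfl fun O' hO' => prod_congr ?_ fun _ _ => rfl
    obtain ⟨c, -, rfl⟩ := mem_image.1 hO'
    ext U
    simp only [mem_filter, mem_image, mem_univ, true_and]
    constructor
    · rintro ⟨⟨d, rfl⟩, hd⟩
      rw [hg] at hd
      exact ⟨d, hd ▸ self_mem_orb H d, rfl⟩
    · rintro ⟨d, hd, rfl⟩
      exact ⟨⟨d, rfl⟩, (hg d).trans (orb_eq_of_mem hd)⟩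
  have hbJ : orb H b ∈ J := mem_image_of_mem _ (mem_univ b)
  have e2 : phi H / wt (orb H b).card = ∏ O' ∈ J.erase (orb H b), wt O'.card := by
    rw [div_eq_iff (wt_pos _).ne', prod_erase_mul J (fun O' => wt O'.card) hbJ]
    rfl
  rw [e, e2, ← mul_prod_erase J _ hbJ]
  refine mul_le_mul_of_nonneg_left (prod_le_prod (fun O' _ => (psi_pos K O').le) fun O' hO' => ?_)
    (psi_pos K _).le
  obtain ⟨c, -, rfl⟩ := mem_image.1 (mem_of_mem_erase hO')
  exact psi_le hK c

/-- The main induction. -/
theorem sharp_bounds : ∀ (m : ℕ) (H : Subgroup (Equiv.Perm α)), (els H).card = m →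
    (pairs H : ℝ) ≤ (m : ℝ) * phi H ∧
      ∀ b : α, (wsum H (orb H b) : ℝ) ≤ (m : ℝ) * (amp (orb H b).card * phi H) := by
  classical
  intro m
  induction m using Nat.strong_induction_on with
  | _ m ih =>
  intro H hm
  have big : ∀ b : α, orb H b ≠ {b} → (pairs H : ℝ) ≤ (m : ℝ) * phi H ∧
      (wsum H (orb H b) : ℝ) ≤ (m : ℝ) * (amp (orb H b).card * phi H) := by
    intro b hb
    set K := stab H b with hK
    set O := orb H b with hO
    set N := fixer H O with hN
    have hO2 : 2 ≤ O.card := by
      by_contra h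
      exact hb (eq_singleton_iff_unique_mem.2 ⟨self_mem_orb H b,
        fun a ha => card_le_one.1 (by omega) a ha b (self_mem_orb H b)⟩)
    have hKpos : 0 < (els K).card := card_pos.2 ⟨1, mem_els.2 K.one_mem⟩
    have hNpos : 0 < (els N).card := card_pos.2 ⟨1, mem_els.2 N.one_mem⟩
    have hcard : (els K).card * O.card = m := (card_orb_mul H b).trans hm
    have hlt : (els K).card < m := by
      rw [← hcard]; exact lt_mul_of_one_lt_right hKpos (by omega)
    have hNK : N ≤ K := fun g hg => mem_stab.2 ⟨(mem_fixer.1 hg).1, (mem_fixer.1 hg).2 b (self_mem_orb H b)⟩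
    have hNlt : (els N).card < m :=
      lt_of_le_of_lt (card_le_card fun g hg => mem_els.2 (hNK (mem_els.1 hg))) hlt
    obtain ⟨hKp, hKw⟩ := ih _ hlt K rfl
    obtain ⟨hNp, -⟩ := ih _ hNlt N rfl
    set P := O.image (orb K) with hP
    have hKb : orb K b = {b} := eq_singleton_iff_unique_mem.2 ⟨self_mem_orb K b, fun a ha => by
      obtain ⟨g, hg, rfl⟩ := mem_orb.1 ha
      exact (mem_stab.1 hg).2⟩
    have hbP : {b} ∈ P := hKb ▸ mem_image_of_mem _ (self_mem_orb H b)
    set M : Multiset ℕ := (P.erase {b}).val.map Finset.card with hM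
    have hMsum : M.sum + 1 = O.card := by
      rw [show M.sum = ∑ U ∈ P.erase {b}, U.card from rfl, ← parts_sum (stab_le H b) b, ← hO, ← hP,
        ← sum_erase_add P _ hbP, card_singleton]
    have hM0 : M ≠ 0 := fun h => by rw [h] at hMsum; simp at hMsum; omega
    have hMpos : ∀ l ∈ M, 1 ≤ l := fun l hl => by
      obtain ⟨U, hU, rfl⟩ := Multiset.mem_map.1 hl
      obtain ⟨d, -, rfl⟩ := mem_image.1 (mem_of_mem_erase (s := P) hU)
      exact card_pos.2 ⟨d, self_mem_orb K d⟩
    obtain ⟨nb1, nb2⟩ := parts_bound _ M rfl hM0 hMpos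
    rw [hMsum] at nb1 nb2
    set A := (M.map amp).sum with hA
    have hAeq : A = ∑ U ∈ P.erase {b}, amp U.card := by rw [hA, hM, Multiset.map_map]; rfl
    have hA0 : 0 ≤ A := sum_amp_nonneg M
    have hpsi : psi K O = (M.map wt).prod := by
      rw [hM, Multiset.map_map]
      show ∏ U ∈ P, wt U.card = ∏ U ∈ P.erase {b}, wt U.card
      rw [← prod_erase_mul P _ hbP, card_singleton, wt_one, mul_one]
    rw [← hpsi] at nb1 nb2
    set R := phi H / wt O.card with hR
    have hR0 : 0 ≤ R := div_nonneg (psi_pos H _).le (wt_pos _).le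
    have hphiR : phi H = wt O.card * R := (mul_div_cancel₀ _ (wt_pos _).ne').symm
    have hphiK : phi K ≤ psi K O * R := phi_le (stab_le H b) b
    have hphiN : phi N ≤ R := by
      refine (phi_le (show N ≤ H from fun g hg => (mem_fixer.1 hg).1) b).trans (le_of_eq ?_)
      have hNo : ∀ c ∈ O, orb N c = {c} := fun c hc => eq_singleton_iff_unique_mem.2
        ⟨self_mem_orb N c, fun a ha => by
          obtain ⟨g, hg, rfl⟩ := mem_orb.1 ha
          exact (mem_fixer.1 hg).2 c hc⟩
      have h1 : psi N O = 1 := prod_eq_one fun U hU => by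
        obtain ⟨c, hc, rfl⟩ := mem_image.1 hU
        rw [hNo c hc, card_singleton, wt_one]
      rw [← hO, h1, one_mul]
    -- the part of the weighted sum away from `b`
    have hsplit : wsum K O = pairs K + ∑ U ∈ P.erase {b}, wsum K U := by
      rw [hO, wsum_split (stab_le H b) b, ← hO, ← hP, ← add_sum_erase P _ hbP]
      congr 1
      rw [← hKb, pairs_eq_wsum_of_orb_singleton K b hKb]
    have hT' : (∑ U ∈ P.erase {b}, (wsum K U : ℝ)) ≤ ((els K).card : ℝ) * (A * (psi K O * R)) := by
      rw [hAeq, sum_mul, mul_sum]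
      refine sum_le_sum fun U hU => ?_
      obtain ⟨d, -, rfl⟩ := mem_image.1 (mem_of_mem_erase hU)
      exact (hKw d).trans (mul_le_mul_of_nonneg_left (mul_le_mul_of_nonneg_left hphiK (amp_pos _).le)
        (Nat.cast_nonneg _))
    have hm' : ((els K).card : ℝ) * (O.card : ℝ) = (m : ℝ) := by exact_mod_cast hcard
    refine ⟨?_, ?_⟩
    · have hN' : ((∑ x ∈ els N, cen H x : ℕ) : ℝ) ≤ (m : ℝ) * R := by
        have h := sum_fixer_le H O
        rw [hm, ← hN] at h
        have h' : ((els N).card : ℝ) * ((∑ x ∈ els N, cen H x : ℕ) : ℝ) ≤ (m : ℝ) * (pairs N : ℝ) := by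
          exact_mod_cast h
        refine le_of_mul_le_mul_left (h'.trans ?_) (by exact_mod_cast hNpos : (0 : ℝ) < (els N).card)
        calc (m : ℝ) * (pairs N : ℝ) ≤ (m : ℝ) * (((els N).card : ℝ) * R) :=
              mul_le_mul_of_nonneg_left (hNp.trans (mul_le_mul_of_nonneg_left hphiN (Nat.cast_nonneg _)))
                (Nat.cast_nonneg _)
          _ = _ := by ring
      have h := pairs_le_sharp H b hO2
      rw [← hO, ← hK, ← hN, hsplit] at h
      have h' : (pairs H : ℝ) + (O.card : ℝ) * (pairs K : ℝ) ≤ (O.card : ℝ) *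
          ((pairs K : ℝ) + ∑ U ∈ P.erase {b}, (wsum K U : ℝ)) + ((∑ x ∈ els N, cen H x : ℕ) : ℝ) := by
        exact_mod_cast h
      have h2 := mul_le_mul_of_nonneg_left hT' (Nat.cast_nonneg O.card : (0 : ℝ) ≤ O.card)
      have h3 : (m : ℝ) * R * (A * psi K O + 1) ≤ (m : ℝ) * R * wt O.card :=
        mul_le_mul_of_nonneg_left nb2 (mul_nonneg (Nat.cast_nonneg _) hR0)
      have h4 : (O.card : ℝ) * (((els K).card : ℝ) * (A * (psi K O * R))) = (m : ℝ) * R * (A * psi K O) := by
        rw [← hm']; ring
      rw [hphiR]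
      linarith
    · have h : (wsum H O : ℝ) ≤ (O.card : ℝ) * ((pairs K : ℝ) + ∑ U ∈ P.erase {b}, (wsum K U : ℝ)) := by
        have h0 := wsum_le_stab H b
        rw [← hO, ← hK, hsplit] at h0
        exact_mod_cast h0
      have hKp' := hKp.trans (mul_le_mul_of_nonneg_left hphiK (Nat.cast_nonneg _))
      have h2 := h.trans (mul_le_mul_of_nonneg_left (add_le_add hKp' hT') (Nat.cast_nonneg _))
      refine h2.trans ?_
      have h3 : (m : ℝ) * R * ((1 + A) * psi K O) ≤ (m : ℝ) * R * (amp O.card * wt O.card) :=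
        mul_le_mul_of_nonneg_left nb1 (mul_nonneg (Nat.cast_nonneg _) hR0)
      have h4 : (O.card : ℝ) * (((els K).card : ℝ) * (psi K O * R) + ((els K).card : ℝ) * (A * (psi K O * R))) =
          (m : ℝ) * R * ((1 + A) * psi K O) := by
        rw [← hm']; ring
      rw [hphiR, h4]
      linarith
  have hphi1 : (∀ c, orb H c = {c}) → phi H = 1 := fun he => prod_eq_one fun U hU => by
    obtain ⟨c, -, rfl⟩ := mem_image.1 hU
    rw [he c, card_singleton, wt_one]
  have hp : (pairs H : ℝ) ≤ (m : ℝ) * phi H := by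
    by_cases he : ∃ b, orb H b ≠ {b}
    · obtain ⟨b, hb⟩ := he
      exact (big b hb).1
    · push Not at he
      have h1 : els H = {1} := by
        refine eq_singleton_iff_unique_mem.2 ⟨mem_els.2 H.one_mem, fun g hg => Equiv.ext fun a => ?_⟩
        have : g a ∈ orb H a := mem_orb.2 ⟨g, mem_els.1 hg, rfl⟩
        rw [he a, mem_singleton] at this
        simpa using this
      have hm1 : m = 1 := by rw [← hm, h1, card_singleton]
      have h2 : pairs H ≤ 1 := by
        simp only [pairs, cen, h1, sum_singleton]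
        exact (card_filter_le _ _).trans (card_singleton _).le
      rw [hphi1 he, hm1]
      simpa using h2
  refine ⟨hp, fun b => ?_⟩
  by_cases hb : orb H b = {b}
  · rw [pairs_eq_wsum_of_orb_singleton H b hb, hb, card_singleton, amp_one, one_mul]
    exact hp
  · exact (big b hb).2

/-- The class number is at most the product of the orbit weights. -/
theorem card_conjClasses_le_phi (H : Subgroup (Equiv.Perm α)) :
    (Nat.card (ConjClasses H) : ℝ) ≤ phi H := by
  have h := (sharp_bounds _ H (card_els H)).1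
  rw [pairs_eq_classes, Nat.cast_mul, mul_comm] at h
  exact le_of_mul_le_mul_left h (Nat.cast_pos.2 Nat.card_pos)

/-- A permutation group of degree at least three has `k² ≤ 3 ^ (n - 1)`. -/
theorem card_conjClasses_sq_le (H : Subgroup (Equiv.Perm α)) (hn : 3 ≤ Fintype.card α) :
    Nat.card (ConjClasses H) ^ 2 ≤ 3 ^ (Fintype.card α - 1) := by
  classical
  have hphi : phi H ≤ wt (Fintype.card α) := by
    have h := prod_wt_le (((univ : Finset α).image (orb H)).val.map Finset.card) fun l hl => by
      obtain ⟨U, hU, rfl⟩ := Multiset.mem_map.1 hl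
      obtain ⟨c, -, rfl⟩ := mem_image.1 hU
      exact card_pos.2 ⟨c, self_mem_orb H c⟩
    rw [Multiset.map_map] at h
    change phi H ≤ wt (∑ U ∈ (univ : Finset α).image (orb H), U.card) at h
    refine h.trans (le_of_eq (congrArg wt ?_))
    rw [← Finset.card_univ, card_eq_sum_card_fiberwise (f := orb H) (s := (univ : Finset α))
      (t := (univ : Finset α).image (orb H)) (fun a ha => mem_image_of_mem _ ha)]
    refine sum_congr rfl fun U hU => congrArg card ?_
    obtain ⟨c, -, rfl⟩ := mem_image.1 hU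
    ext a
    simp only [mem_filter, mem_univ, true_and]
    exact ⟨fun ha => orb_eq_of_mem ha, fun e => e ▸ self_mem_orb H a⟩
  have h1 := (card_conjClasses_le_phi H).trans hphi
  rw [wt_big hn] at h1
  have h2 := pow_le_pow_left₀ (Nat.cast_nonneg _) h1 2
  rw [← pow_mul, mul_comm, pow_mul, pow_two (Real.sqrt 3), sqrt_three_sq] at h2
  exact_mod_cast h2

end Cfsg.Agent.Lib.PermClasses
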